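import Mathlib.Tactic
import Mathlib.Data.Nat.Prime.Basic
import Mathlib.Data.Complex.Basic

/-!
# Arithmetic for simple groups of order `4 * 3 ^ i * r ^ j`
-/

set_option autoImplicit false

namespace Cfsg.Agent.Lib.SmallCofactor

theorem eq_pow_of_only {x r : ℕ} (hx : x ≠ 0) (h : ∀ q, q.Prime → q ∣ x → q = r) :
    ∃ m, x = r ^ m :=
  ⟨_, Nat.eq_prime_pow_of_unique_prime_dvd hx fun {q} hq hd => h q hq hd⟩

/-- A signed degree: `1` modulo `4`, and both `|X|` and `|X + 1| / 2` involve `3` and `r` only. -/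
structure Deg (r : ℕ) (X : ℤ) : Prop where
  four : 4 ∣ X - 1
  ne_one : X ≠ 1
  self : ∀ q, q.Prime → q ∣ X.natAbs → q = 3 ∨ q = r
  succ : ∀ q, q.Prime → q ∣ (X + 1).natAbs → q = 2 ∨ q = 3 ∨ q = r

theorem half_succ {X : ℤ} (h : 4 ∣ X - 1) : ∃ y : ℕ, (X + 1).natAbs = 2 * y ∧ y % 2 = 1 :=
  ⟨(X + 1).natAbs / 2, by omega, by omega⟩

theorem Deg.shape {r : ℕ} {X : ℤ} (hr : r.Prime) (hr3 : r ≠ 3) (h : Deg r X) :
    ((∃ k, 0 < k ∧ X.natAbs = 3 ^ k) ∧ ∃ m, (X + 1).natAbs = 2 * r ^ m) ∨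
      ((∃ k, 0 < k ∧ X.natAbs = r ^ k) ∧ ∃ j, 0 < j ∧ (X + 1).natAbs = 2 * 3 ^ j) := by
  obtain ⟨y, hy, hyo⟩ := half_succ h.four
  have h0 : X.natAbs ≠ 0 := by have := h.four; omega
  have hy0 : y ≠ 0 := by omega
  have hyq : ∀ q, q.Prime → q ∣ y → q = 3 ∨ q = r := by
    intro q hq hd
    rcases h.succ q hq (hy ▸ hd.mul_left 2) with rfl | e
    · omega
    · exact e
  have hcop : ∀ q, q.Prime → q ∣ X.natAbs → ¬ q ∣ y := by
    intro q hq h1 h2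
    have d1 : (q : ℤ) ∣ X := Int.natCast_dvd.2 h1
    have d2 : (q : ℤ) ∣ X + 1 := Int.natCast_dvd.2 (hy ▸ h2.mul_left 2)
    have d3 : (q : ℤ) ∣ 1 := by simpa using dvd_sub d2 d1
    exact hq.one_lt.ne' (by have := Int.eq_one_of_dvd_one (by positivity) d3; exact_mod_cast this)
  by_cases h3 : 3 ∣ X.natAbs
  · left
    obtain ⟨m, hm⟩ := eq_pow_of_only hy0 fun q hq hd =>
      (hyq q hq hd).resolve_left fun e => hcop 3 Nat.prime_three h3 (e ▸ hd)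
    by_cases hrx : r ∣ X.natAbs
    · exfalso
      rcases Nat.eq_zero_or_pos m with rfl | hm0
      · have e3 : X.natAbs = 3 := by simp only [pow_zero] at hm; omega
        rw [e3] at hrx
        exact hr3 ((Nat.prime_dvd_prime_iff_eq hr Nat.prime_three).1 hrx)
      · exact hcop r hr hrx (hm ▸ dvd_pow_self r hm0.ne')
    · obtain ⟨k, hk⟩ := eq_pow_of_only h0 fun q hq hd =>
        (h.self q hq hd).resolve_right fun e => hrx (e ▸ hd)
      refine ⟨⟨k, ?_, hk⟩, m, by rw [hy, hm]⟩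
      rcases Nat.eq_zero_or_pos k with rfl | hk0
      · rw [hk] at h3; norm_num at h3
      · exact hk0
  · right
    obtain ⟨k, hk⟩ := eq_pow_of_only h0 fun q hq hd =>
      (h.self q hq hd).resolve_left fun e => h3 (e ▸ hd)
    have hk0 : 0 < k := by
      rcases Nat.eq_zero_or_pos k with rfl | hk0
      · exfalso; have := h.four; have := h.ne_one; simp only [pow_zero] at hk; omega
      · exact hk0
    obtain ⟨j, hj⟩ := eq_pow_of_only hy0 fun q hq hd =>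
      (hyq q hq hd).resolve_right fun e => hcop r hr (hk ▸ dvd_pow_self r hk0.ne') (e ▸ hd)
    refine ⟨⟨k, hk0, hk⟩, j, ?_, by rw [hy, hj]⟩
    rcases Nat.eq_zero_or_pos j with rfl | hj0
    · exfalso
      have := h.four; have := h.ne_one
      simp only [pow_zero] at hj
      exact h3 (by omega)
    · exact hj0

theorem eq_or_neg_three {u v : ℤ} {k l j : ℕ} (hu : u.natAbs = 3 ^ k) (hv : v.natAbs = 3 ^ l)
    (hkl : k ≤ l) (hs : (u + v).natAbs = 2 * 3 ^ j) : v = u ∨ v = -3 * u := by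
  rcases Nat.lt_or_eq_of_le hkl with hlt | rfl
  · right
    obtain ⟨d, rfl⟩ := Nat.exists_eq_add_of_lt hlt
    have hdvd : u.natAbs ∣ v.natAbs := by rw [hu, hv]; exact pow_dvd_pow 3 hkl
    obtain ⟨w, rfl⟩ := Int.natAbs_dvd_natAbs.1 hdvd
    rw [Int.natAbs_mul, hu] at hv
    have hw : w.natAbs = 3 ^ (d + 1) := by
      apply Nat.eq_of_mul_eq_mul_left (pow_pos (by norm_num : 0 < 3) k)
      rw [hv, ← pow_add]; ring_nf
    have hw3 : 3 ∣ w.natAbs := hw ▸ dvd_pow_self 3 (by omega)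
    rw [show u + u * w = u * (1 + w) by ring, Int.natAbs_mul, hu] at hs
    set t := (1 + w).natAbs with ht
    have ht3 : ¬ 3 ∣ t := by omega
    have hc : Nat.Coprime (3 ^ j) t :=
      Nat.Coprime.pow_left _ (Nat.prime_three.coprime_iff_not_dvd.2 ht3)
    have htd : t ∣ 2 := by
      have h1 : t ∣ 2 * 3 ^ j := ⟨3 ^ k, by rw [← hs]; ring⟩
      exact hc.symm.dvd_of_dvd_mul_right h1
    have : t ≤ 2 := Nat.le_of_dvd (by norm_num) htd
    have hw0 : 0 < w.natAbs := hw ▸ pow_pos (by norm_num) _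
    have hw' : w = -3 := by omega
    subst hw'; ring
  · left
    rw [← hv] at hu
    rcases Int.natAbs_eq_natAbs_iff.1 hu with e | e
    · exact e.symm
    · exfalso
      subst e
      simp at hs

theorem mixed {r : ℕ} (hr : r.Prime) (hr2 : r ≠ 2) (hr3 : r ≠ 3) {X u v : ℤ} {i j k l m n : ℕ}
    (h0 : 1 + X + u + v = 0) (h4 : 4 ∣ u - 1) (hi : 0 < i) (hk : 0 < k)
    (hX : X.natAbs = r ^ i) (hX1 : (X + 1).natAbs = 2 * 3 ^ j)
    (hu : u.natAbs = 3 ^ k) (hu1 : (u + 1).natAbs = 2 * r ^ m)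
    (hv : v.natAbs = 3 ^ l) (hv1 : (v + 1).natAbs = 2 * r ^ n) (hkl : k ≤ l) :
    X = 5 ∧ u = -3 ∧ v = -3 := by
  have hs : (u + v).natAbs = 2 * 3 ^ j := by
    rw [show u + v = -(X + 1) by linarith, Int.natAbs_neg, hX1]
  have hu3 : 3 ∣ u.natAbs := hu ▸ dvd_pow_self 3 hk.ne'
  have hrX : (r : ℤ) ∣ X := Int.natCast_dvd.2 (hX ▸ dvd_pow_self r hi.ne')
  have hm : m = 0 ∨ (r : ℤ) ∣ u + 1 := by
    rcases Nat.eq_zero_or_pos m with h | h
    · exact Or.inl h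
    · exact Or.inr (Int.natCast_dvd.2 (hu1 ▸ (dvd_pow_self r h.ne').mul_left 2))
  rcases eq_or_neg_three hu hv hkl hs with rfl | rfl
  · rcases hm with rfl | hd
    · simp only [pow_zero] at hu1; omega
    · exfalso
      have : (r : ℤ) ∣ 1 := by
        have h := dvd_add (hd.mul_left 2) hrX
        rwa [show 2 * (v + 1) + X = 1 by linarith] at h
      have := Int.eq_one_of_dvd_one (by positivity) this
      exact hr.one_lt.ne' (by exact_mod_cast this)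
  · exfalso
    rcases hm with rfl | hd
    · simp only [pow_zero] at hu1
      have hu' : u = -3 := by omega
      subst hu'
      have hX7 : X.natAbs = 7 := by omega
      have h7 : r ∣ 7 := hX7 ▸ hX ▸ dvd_pow_self r hi.ne'
      have hr7 : r = 7 := (Nat.prime_dvd_prime_iff_eq hr (by norm_num)).1 h7
      subst hr7
      norm_num at hv1
      rcases Nat.eq_zero_or_pos n with rfl | hn
      · omega
      · obtain ⟨c, hc⟩ := dvd_pow_self 7 hn.ne'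
        omega
    · have : (r : ℤ) ∣ 3 := by
        have h := dvd_sub (hd.mul_left 2) hrX
        rwa [show 2 * (u + 1) - X = 3 by linarith] at h
      exact hr3 ((Nat.prime_dvd_prime_iff_eq hr Nat.prime_three).1 (by exact_mod_cast this))

/-- The only triples are permutations of `5, -3, -3`. -/
theorem degrees {r : ℕ} (hr : r.Prime) (hr2 : r ≠ 2) (hr3 : r ≠ 3) {X Y Z : ℤ}
    (hX : Deg r X) (hY : Deg r Y) (hZ : Deg r Z) (h0 : 1 + X + Y + Z = 0) :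
    X = 5 ∧ Y = -3 ∧ Z = -3 ∨ X = -3 ∧ Y = 5 ∧ Z = -3 ∨ X = -3 ∧ Y = -3 ∧ Z = 5 := by
  have sym : ∀ {X u v : ℤ} {i j k l m n : ℕ}, 1 + X + u + v = 0 → 4 ∣ u - 1 → 4 ∣ v - 1 → 0 < i →
      0 < k → 0 < l → X.natAbs = r ^ i → (X + 1).natAbs = 2 * 3 ^ j → u.natAbs = 3 ^ k →
      (u + 1).natAbs = 2 * r ^ m → v.natAbs = 3 ^ l → (v + 1).natAbs = 2 * r ^ n →
      X = 5 ∧ u = -3 ∧ v = -3 := by
    intro X u v i j k l m n h0 hu4 hv4 hi hk hl hX hX1 hu hu1 hv hv1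
    rcases le_total k l with h | h
    · exact mixed hr hr2 hr3 h0 hu4 hi hk hX hX1 hu hu1 hv hv1 h
    · obtain ⟨a, b, c⟩ := mixed hr hr2 hr3 (by linarith : 1 + X + v + u = 0) hv4 hi hl hX hX1 hv hv1
        hu hu1 h
      exact ⟨a, c, b⟩
  have hA : ∀ {W : ℤ} {k : ℕ}, 0 < k → W.natAbs = 3 ^ k → (3 : ℤ) ∣ W := fun hk h =>
    Int.natCast_dvd.2 (h ▸ dvd_pow_self 3 hk.ne')
  have hB : ∀ {W : ℤ} {j : ℕ}, 0 < j → (W + 1).natAbs = 2 * 3 ^ j → (3 : ℤ) ∣ W + 1 := fun hj h =>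
    Int.natCast_dvd.2 (h ▸ (dvd_pow_self 3 hj.ne').mul_left 2)
  rcases hX.shape hr hr3 with ⟨⟨x, x0, xe⟩, x', xe'⟩ | ⟨⟨x, x0, xe⟩, x', x0', xe'⟩ <;>
  rcases hY.shape hr hr3 with ⟨⟨y, y0, ye⟩, y', ye'⟩ | ⟨⟨y, y0, ye⟩, y', y0', ye'⟩ <;>
  rcases hZ.shape hr hr3 with ⟨⟨z, z0, ze⟩, z', ze'⟩ | ⟨⟨z, z0, ze⟩, z', z0', ze'⟩
  · have := hA x0 xe; have := hA y0 ye; have := hA z0 ze; omega
  · obtain ⟨a, b, c⟩ := sym (by linarith : 1 + Z + X + Y = 0) hX.four hY.four z0 x0 y0 ze ze' xe xe'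
      ye ye'
    exact Or.inr (Or.inr ⟨b, c, a⟩)
  · obtain ⟨a, b, c⟩ := sym (by linarith : 1 + Y + X + Z = 0) hX.four hZ.four y0 x0 z0 ye ye' xe xe'
      ze ze'
    exact Or.inr (Or.inl ⟨b, a, c⟩)
  · have := hA x0 xe; have := hB y0' ye'; have := hB z0' ze'; omega
  · exact Or.inl (sym h0 hY.four hZ.four x0 y0 z0 xe xe' ye ye' ze ze')
  · have := hB x0' xe'; have := hA y0 ye; have := hB z0' ze'; omega
  · have := hB x0' xe'; have := hB y0' ye'; have := hA z0 ze; omega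
  · have := hB x0' xe'; have := hB y0' ye'; have := hB z0' ze'; omega

section Eigen

/-- Degree three, value `-1` at an involution `t`, at `t w` and at `t w ^ 2`: `w` has eigenvalues one. -/
theorem signs_three {e₁ e₂ e₃ μ₁ μ₂ μ₃ : ℂ} (h1 : e₁ * e₁ = 1) (h2 : e₂ * e₂ = 1)
    (h3 : e₃ * e₃ = 1) (s0 : e₁ + e₂ + e₃ = -1) (s1 : e₁ * μ₁ + e₂ * μ₂ + e₃ * μ₃ = -1)
    (s2 : e₁ * μ₁ ^ 2 + e₂ * μ₂ ^ 2 + e₃ * μ₃ ^ 2 = -1) (hd : μ₁ * μ₂ * μ₃ = 1) {m : ℕ}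
    (hm : Odd m) (m1 : μ₁ ^ m = 1) (m2 : μ₂ ^ m = 1) (m3 : μ₃ ^ m = 1) :
    μ₁ = 1 ∧ μ₂ = 1 ∧ μ₃ = 1 := by
  have base : ∀ {a b c : ℂ}, a - b - c = -1 → a ^ 2 - b ^ 2 - c ^ 2 = -1 → a * b * c = 1 →
      a ^ m = 1 → a = 1 ∧ b = 1 ∧ c = 1 := by
    intro a b c e1 e2 e3 ea
    have hbc : b * c = a := by
      linear_combination (e2 - e1 * (a + b + c + 1)) / 2 + (e1) * 0
    have ha2 : a ^ 2 = 1 := by linear_combination e3 - a * hbc
    have ha : a = 1 := by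
      obtain ⟨k, rfl⟩ := hm
      rwa [pow_succ, pow_mul, ha2, one_pow, one_mul] at ea
    subst ha
    have hb : (b - 1) * (b - 1) = 0 := by linear_combination (-b) * e1 - hbc
    have hb' : b = 1 := sub_eq_zero.1 (mul_self_eq_zero.1 hb)
    subst hb'
    exact ⟨rfl, rfl, by linear_combination hbc⟩
  rcases mul_self_eq_one_iff.1 h1 with rfl | rfl <;>
  rcases mul_self_eq_one_iff.1 h2 with rfl | rfl <;>
  rcases mul_self_eq_one_iff.1 h3 with rfl | rfl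
  · norm_num at s0
  · norm_num at s0
  · norm_num at s0
  · exact base (by linear_combination s1) (by linear_combination s2) hd m1
  · norm_num at s0
  · obtain ⟨a, b, c⟩ := base (a := μ₂) (b := μ₁) (c := μ₃) (by linear_combination s1)
      (by linear_combination s2) (by linear_combination hd) m2
    exact ⟨b, a, c⟩
  · obtain ⟨a, b, c⟩ := base (a := μ₃) (b := μ₁) (c := μ₂) (by linear_combination s1)
      (by linear_combination s2) (by linear_combination hd) m3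
    exact ⟨b, c, a⟩
  · norm_num at s0

/-- Degree three, a cube root of one weighted sum zero: the weights are equal. -/
theorem cubes_three {e₁ e₂ e₃ μ₁ μ₂ μ₃ : ℂ} (h1 : e₁ ^ 3 = 1) (h2 : e₂ ^ 3 = 1) (h3 : e₃ ^ 3 = 1)
    (s0 : e₁ + e₂ + e₃ = 0) (t0 : e₁ ^ 2 + e₂ ^ 2 + e₃ ^ 2 = 0)
    (s1 : e₁ * μ₁ + e₂ * μ₂ + e₃ * μ₃ = 0) (t1 : e₁ ^ 2 * μ₁ + e₂ ^ 2 * μ₂ + e₃ ^ 2 * μ₃ = 0) :
    μ₁ = μ₂ ∧ μ₁ = μ₃ := by
  have ne : ∀ {a b c : ℂ}, a ^ 3 = 1 → b ^ 3 = 1 → a + b + c = 0 → c ^ 3 = 1 → b ≠ c := by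
    intro a b c ha hb hs hc h
    subst h
    have hh : a = -2 * b := by linear_combination hs
    subst hh
    have : ((-9 : ℤ) : ℂ) = ((0 : ℤ) : ℂ) := by push_cast; linear_combination ha + 8 * hb
    simp at this
  have e2 : e₂ ≠ 0 := by intro h; subst h; simp at h2
  have e3 : e₃ ≠ 0 := by intro h; subst h; simp at h3
  have n23 : e₂ ≠ e₃ := ne h1 h2 s0 h3
  have hA : e₂ * (μ₂ - μ₁) + e₃ * (μ₃ - μ₁) = 0 := by linear_combination s1 - μ₁ * s0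
  have hB : e₂ ^ 2 * (μ₂ - μ₁) + e₃ ^ 2 * (μ₃ - μ₁) = 0 := by linear_combination t1 - μ₁ * t0
  have hC : e₃ * (e₃ - e₂) * (μ₃ - μ₁) = 0 := by linear_combination hB - e₂ * hA
  have h31 : μ₃ - μ₁ = 0 :=
    (mul_eq_zero.1 hC).resolve_left (mul_ne_zero e3 (sub_ne_zero.2 n23.symm))
  rw [h31, mul_zero, add_zero] at hA
  have h21 : μ₂ - μ₁ = 0 := (mul_eq_zero.1 hA).resolve_left e2
  exact ⟨(sub_eq_zero.1 h21).symm, (sub_eq_zero.1 h31).symm⟩

end Eigen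

end Cfsg.Agent.Lib.SmallCofactor
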