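import Mathlib

/-!
# Arithmetic for simple groups of order `p * r * q ^ b`
-/

set_option autoImplicit false

namespace Cfsg.Agent.Lib.SmallCofactor

theorem two_sq_lt_two_pow : ∀ {p : ℕ}, 7 ≤ p → 2 * p ^ 2 < 2 ^ p := by
  intro p hp
  induction p, hp using Nat.le_induction with
  | base => norm_num
  | succ n hn ih =>
    rw [pow_succ 2 n]
    nlinarith

/-- The degrees in the case where the normaliser index is `p`. -/
theorem pow_two_dvd_of_cong {p r j : ℕ} (hp : p.Prime) (hr : r = 2 * p + 1) (hrp : r.Prime)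
    (hp5 : 5 ≤ p) (h : (r : ℤ) ∣ 2 ^ (2 * j) - 1) : p ∣ j := by
  haveI := Fact.mk hrp
  have h1 : (2 : ZMod r) ^ (2 * j) = 1 := by
    have := (ZMod.intCast_zmod_eq_zero_iff_dvd _ r).2 h
    push_cast at this
    exact sub_eq_zero.1 this
  have h2 : (2 : ZMod r) ^ (2 * p) = 1 := by
    have hne : (2 : ZMod r) ≠ 0 := by
      intro e
      have : r ∣ 2 := (ZMod.natCast_eq_zero_iff 2 r).1 (by exact_mod_cast e)
      have := Nat.le_of_dvd two_pos this
      omega
    have := ZMod.pow_card_sub_one_eq_one hne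
    rwa [show r - 1 = 2 * p by omega] at this
  by_contra hn
  have hg : Nat.gcd (2 * j) (2 * p) = 2 := by
    rw [Nat.gcd_mul_left, Nat.Coprime.gcd_eq_one ((hp.coprime_iff_not_dvd.2 hn).symm), mul_one]
  have h4 : (2 : ZMod r) ^ Nat.gcd (2 * j) (2 * p) = 1 :=
    orderOf_dvd_iff_pow_eq_one.1 (Nat.dvd_gcd (orderOf_dvd_of_pow_eq_one h1)
      (orderOf_dvd_of_pow_eq_one h2))
  rw [hg] at h4
  have : r ∣ 3 := by
    refine (ZMod.natCast_eq_zero_iff 3 r).1 ?_
    linear_combination h4
  have := Nat.le_of_dvd (by norm_num) this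
  omega

/-- The case of normaliser index `p`. -/
theorem false_of_index_p {p q r : ℕ} (hp : p.Prime) (hq : q.Prime) (hr : r.Prime)
    (hr2 : r = 2 * p + 1) (hp5 : 5 ≤ p) {ι : Type*} (S : Finset ι) (hS : S.card + 1 = p)
    (g : ι → ℕ) (s : ι → ℤ) (hs : ∀ i ∈ S, s i = 1 ∨ s i = -1)
    (hg1 : ∀ i ∈ S, g i ≠ 1) (hg : ∀ i ∈ S, (r : ℤ) ∣ (g i : ℤ) - s i)
    (hd : ∀ i ∈ S, ∃ j, g i = q ^ j ∨ g i = p * q ^ j)
    (hsum : (p : ℤ) = 1 + ∑ i ∈ S, s i * g i) : False := by
  have hbig : ∀ i ∈ S, (q = 2 ∧ g i = 2 * p) ∨ ∃ j, q ^ j ∣ g i ∧ r ≤ q ^ j + 2 ∧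
      (q = 2 → p ≤ j) := by
    intro i hi
    obtain ⟨j, hj⟩ := hd i hi
    have hc := hg i hi
    have hq2 := hq.two_le
    have hpos : 0 < q ^ j := pow_pos hq.pos j
    rcases hj with hj | hj
    · right
      have hj0 : j ≠ 0 := fun e => hg1 i hi (by rw [hj, e, pow_zero])
      refine ⟨j, hj ▸ dvd_rfl, ?_, fun e => ?_⟩
      · by_contra hlt
        obtain ⟨c, hc'⟩ := hc
        rw [hj] at hc'
        have h1 : q ≤ q ^ j := Nat.le_self_pow hj0 q
        have h2 : ((q ^ j : ℕ) : ℤ) + 2 < r := by exact_mod_cast (by omega : q ^ j + 2 < r)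
        have h3 : (2 : ℤ) ≤ ((q ^ j : ℕ) : ℤ) := by exact_mod_cast (by omega : 2 ≤ q ^ j)
        generalize ((q ^ j : ℕ) : ℤ) = z at *
        rcases hs i hi with e | e <;> rw [e] at hc' <;>
          (rcases le_or_gt c 0 with h | h <;> nlinarith)
      · subst e
        refine Nat.le_of_dvd (Nat.pos_of_ne_zero hj0) (pow_two_dvd_of_cong hp hr2 hr hp5 ?_)
        obtain ⟨c, hc'⟩ := hc
        rw [hj] at hc'
        push_cast at hc'
        rw [two_mul j, pow_add]
        rcases hs i hi with e | e <;> rw [e] at hc'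
        · exact ⟨c * ((2 : ℤ) ^ j + 1), by linear_combination ((2 : ℤ) ^ j + 1) * hc'⟩
        · exact ⟨c * ((2 : ℤ) ^ j - 1), by linear_combination ((2 : ℤ) ^ j - 1) * hc'⟩
    · by_cases hsmall : q ^ j = 2
      · left
        refine ⟨?_, by rw [hj, hsmall, mul_comm]⟩
        exact (Nat.prime_dvd_prime_iff_eq hq Nat.prime_two).1
          (hsmall ▸ dvd_pow_self q (fun e => by rw [e, pow_zero] at hsmall; omega))
      right
      obtain ⟨c, hc'⟩ := hc
      rw [hj] at hc'
      push_cast at hc'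
      have hz : (r : ℤ) ∣ (q : ℤ) ^ j + 2 * s i :=
        ⟨(q : ℤ) ^ j - 2 * c, by
          have : (r : ℤ) = 2 * p + 1 := by exact_mod_cast hr2
          linear_combination -2 * hc' - (q : ℤ) ^ j * this⟩
      refine ⟨j, hj ▸ dvd_mul_left _ _, ?_, fun e => ?_⟩
      · by_contra hlt
        obtain ⟨c', hc''⟩ := hz
        rw [← Nat.cast_pow] at hc''
        have h2 : ((q ^ j : ℕ) : ℤ) + 2 < r := by exact_mod_cast (by omega : q ^ j + 2 < r)
        have h3 : ((q ^ j : ℕ) : ℤ) ≠ 2 := by exact_mod_cast hsmall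
        have h4 : (1 : ℤ) ≤ ((q ^ j : ℕ) : ℤ) := by exact_mod_cast hpos
        have h5 : (11 : ℤ) ≤ r := by exact_mod_cast (by omega : 11 ≤ r)
        generalize ((q ^ j : ℕ) : ℤ) = z at *
        rcases hs i hi with e | e <;> rw [e] at hc'' <;>
          (rcases lt_trichotomy c' 0 with h | h | h <;>
            first | nlinarith | (subst h; omega))
      · subst e
        obtain ⟨c', hc''⟩ := hz
        push_cast at hc''
        obtain ⟨k, rfl⟩ : ∃ k, j = k + 1 := ⟨j - 1, by
          rcases Nat.eq_zero_or_pos j with h | h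
          · exfalso
            subst h
            have h5 : (11 : ℤ) ≤ r := by exact_mod_cast (by omega : 11 ≤ r)
            simp only [pow_zero] at hc''
            rcases hs i hi with e | e <;> rw [e] at hc'' <;>
              (rcases lt_trichotomy c' 0 with h | h | h <;>
                first | nlinarith | (subst h; omega))
          · omega⟩
        have hk0 : k ≠ 0 := fun e => hsmall (by rw [e]; rfl)
        have hpk : p ≤ k := by
          refine Nat.le_of_dvd (Nat.pos_of_ne_zero hk0) (pow_two_dvd_of_cong hp hr2 hr hp5 ?_)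
          have hcop : IsCoprime (r : ℤ) 4 := by
            rw [Int.isCoprime_iff_gcd_eq_one, show (4 : ℤ) = ((4 : ℕ) : ℤ) from rfl,
              Int.gcd_natCast_natCast]
            exact (Nat.coprime_primes hr Nat.prime_two).2 (by omega) |>.pow_right 2
          refine hcop.dvd_of_dvd_mul_left ?_
          rw [two_mul k, pow_add]
          rw [pow_succ] at hc''
          rcases hs i hi with e | e <;> rw [e] at hc''
          · exact ⟨c' * (2 * (2 : ℤ) ^ k - 2), by linear_combination (2 * (2 : ℤ) ^ k - 2) * hc''⟩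
          · exact ⟨c' * (2 * (2 : ℤ) ^ k + 2), by linear_combination (2 * (2 : ℤ) ^ k + 2) * hc''⟩
        omega
  have hp1 : (5 : ℤ) ≤ p := by exact_mod_cast hp5
  by_cases hq2 : q = 2
  · subst hq2
    classical
    set K := S.filter fun i => g i = 2 * p with hK
    have hneg : ∀ i ∈ K, s i = -1 := by
      intro i hi
      obtain ⟨hiS, hgi⟩ := Finset.mem_filter.1 hi
      refine (hs i hiS).resolve_left fun e => ?_
      obtain ⟨c, hc⟩ := hg i hiS
      rw [e, hgi, hr2] at hc
      push_cast at hc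
      rcases lt_trichotomy c 1 with h | h | h <;> first | nlinarith | (subst h; omega)
    have h1 : ∑ i ∈ K, s i * g i = -(2 * p * K.card : ℤ) := by
      rw [Finset.sum_congr rfl (g := fun _ => -(2 * (p : ℤ))) fun i hi => by
        rw [hneg i hi, (Finset.mem_filter.1 hi).2]; push_cast; ring, Finset.sum_const, nsmul_eq_mul]
      ring
    have h2 : ((2 : ℤ) ^ p) ∣ ∑ i ∈ S.filter (fun i => ¬ g i = 2 * p), s i * g i := by
      refine Finset.dvd_sum fun i hi => ?_
      obtain ⟨hiS, hgi⟩ := Finset.mem_filter.1 hi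
      rcases hbig i hiS with ⟨-, h⟩ | ⟨j, hj, -, hjp⟩
      · exact absurd h hgi
      · refine Dvd.dvd.mul_left ?_ _
        exact_mod_cast (pow_dvd_pow 2 (hjp rfl)).trans hj
    rw [← Finset.sum_filter_add_sum_filter_not S (fun i => g i = 2 * p), ← hK, h1] at hsum
    obtain ⟨c, hc⟩ := h2
    rw [hc] at hsum
    have hk : (K.card : ℤ) ≤ p - 1 := by
      have := Finset.card_filter_le S (fun i => g i = 2 * p)
      rw [← hK] at this
      omega
    have hk0 : (0 : ℤ) ≤ K.card := Int.natCast_nonneg _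
    rcases Nat.lt_or_ge p 7 with h | h
    · have : p = 5 := by
        rcases (by omega : p = 5 ∨ p = 6) with h | h
        · exact h
        · subst h; norm_num at hp
      subst this
      norm_num at hsum hk
      omega
    · have h7 : (2 : ℤ) * p ^ 2 < 2 ^ p := by exact_mod_cast two_sq_lt_two_pow h
      have hpos : (0 : ℤ) < 2 ^ p := by positivity
      generalize (2 : ℤ) ^ p = T at *
      rcases le_or_gt c 0 with h | h <;> nlinarith
  · have hex : ∃ j, r ≤ q ^ j + 2 := ⟨r, by
      have := Nat.lt_pow_self hq.one_lt (n := r); omega⟩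
    have hall : ∀ i ∈ S, q ^ Nat.find hex ∣ g i := by
      intro i hi
      rcases hbig i hi with ⟨h, -⟩ | ⟨j, hj, hjr, -⟩
      · exact absurd h hq2
      · exact (pow_dvd_pow q (Nat.find_min' hex hjr)).trans hj
    have hm := Nat.find_spec hex
    have hdv : ((q ^ Nat.find hex : ℕ) : ℤ) ∣ (p : ℤ) - 1 := by
      rw [show (p : ℤ) - 1 = ∑ i ∈ S, s i * g i by linear_combination hsum]
      exact Finset.dvd_sum fun i hi => Dvd.dvd.mul_left (Int.natCast_dvd_natCast.2 (hall i hi)) _
    have := Int.le_of_dvd (by omega) hdv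
    have : ((q ^ Nat.find hex : ℕ) : ℤ) + 2 ≥ 2 * p + 1 := by
      exact_mod_cast (by omega : q ^ Nat.find hex + 2 ≥ 2 * p + 1)
    omega

theorem three_dvd_two_pow_add_one (i : ℕ) : 3 ∣ 2 ^ i + 1 ∨ 3 ∣ 2 ^ (i + 1) + 1 := by
  induction i with
  | zero => exact Or.inr (by norm_num)
  | succ n ih =>
    rcases ih with h | h
    · exact Or.inr (by rw [show 2 ^ (n + 1 + 1) = 4 * 2 ^ n by ring]; omega)
    · exact Or.inl h

/-- The case where `p + f = r`. -/
theorem false_of_index_f {p q r f : ℕ} (hp : p.Prime) (hq : q.Prime) (hr : r.Prime)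
    (hp5 : 5 ≤ p) (hrf : r = p + f) (hf : 2 ≤ f) (hfp : f ∣ p - 1) (hfq : ∃ i, f = q ^ i)
    {ι : Type*} (S : Finset ι) (hS : S.card + 1 = f)
    (g : ι → ℕ) (s : ι → ℤ) (hs : ∀ i ∈ S, s i = 1 ∨ s i = -1)
    (hg1 : ∀ i ∈ S, g i ≠ 1) (hg : ∀ i ∈ S, (r : ℤ) ∣ (g i : ℤ) - s i)
    (hd : ∀ i ∈ S, ∃ j, g i = q ^ j ∨ g i = p * q ^ j)
    (hsum : -(p : ℤ) = 1 + ∑ i ∈ S, s i * g i) : False := by
  have hfle : f ≤ p - 1 := Nat.le_of_dvd (by omega) hfp
  obtain ⟨i₀, hi₀⟩ := hfq
  have hi1 : i₀ ≠ 0 := fun e => by rw [e, pow_zero] at hi₀; omega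
  have hqf : q ∣ f := hi₀ ▸ dvd_pow_self q hi1
  have hp5' : (5 : ℤ) ≤ p := by exact_mod_cast hp5
  have hdq : ∀ i ∈ S, q ∣ g i := by
    intro i hi
    obtain ⟨j, hj⟩ := hd i hi
    rcases Nat.eq_zero_or_pos j with h | h
    · subst h
      rw [pow_zero, mul_one] at hj
      rcases hj with hj | hj
      · exact absurd hj (hg1 i hi)
      · exfalso
        obtain ⟨c, hc⟩ := hg i hi
        rw [hj, hrf] at hc
        push_cast at hc
        have hf' : (2 : ℤ) ≤ f := by exact_mod_cast hf
        have hfl : (f : ℤ) ≤ p - 1 := by omega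
        rcases hs i hi with e | e <;> rw [e] at hc <;>
          (rcases le_or_gt c 0 with h | h <;> nlinarith)
    · rcases hj with hj | hj
      · exact hj ▸ dvd_pow_self q h.ne'
      · exact hj ▸ Dvd.dvd.mul_left (dvd_pow_self q h.ne') p
  have hq2 : q = 2 := by
    refine (Nat.prime_dvd_prime_iff_eq hq Nat.prime_two).1 ?_
    have h1 : q ∣ p + 1 := by
      rw [← Int.natCast_dvd_natCast]
      push_cast
      rw [show (p : ℤ) + 1 = -∑ i ∈ S, s i * g i by linear_combination -hsum]
      exact (Finset.dvd_sum fun i hi =>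
        Dvd.dvd.mul_left (Int.natCast_dvd_natCast.2 (hdq i hi)) _).neg_right
    have h2 : q ∣ p - 1 := hqf.trans hfp
    have := Nat.dvd_sub h1 h2
    rwa [show p + 1 - (p - 1) = 2 by omega] at this
  subst hq2
  have three : ∀ {n : ℕ}, n.Prime → 5 ≤ n → ¬ 3 ∣ n := fun hn h5 h => by
    have := (Nat.prime_dvd_prime_iff_eq Nat.prime_three hn).1 h; omega
  rcases Nat.lt_or_ge i₀ 2 with hi | hi
  · have hi : i₀ = 1 := by omega
    subst hi
    rw [pow_one] at hi₀
    subst hi₀
    obtain ⟨a, ha⟩ : ∃ a, S = {a} := Finset.card_eq_one.1 (by omega)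
    subst ha
    rw [Finset.sum_singleton] at hsum
    have hgp : g a = p + 1 := by
      rcases hs a (Finset.mem_singleton_self a) with e | e <;> rw [e] at hsum <;> omega
    obtain ⟨j, hj⟩ := hd a (Finset.mem_singleton_self a)
    rcases hj with hj | hj
    · obtain ⟨k, rfl⟩ : ∃ k, j = k + 1 := ⟨j - 1, by
        rcases Nat.eq_zero_or_pos j with h | h
        · exfalso; rw [h, pow_zero] at hj; omega
        · omega⟩
      rcases three_dvd_two_pow_add_one k with h | h
      · refine three hp hp5 ?_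
        rw [pow_succ] at hj
        omega
      · exact three hr (by omega) (by omega)
    · have : p ∣ p + 1 := hgp ▸ hj ▸ dvd_mul_right p _
      exact hp.not_dvd_one ((Nat.dvd_add_right dvd_rfl).1 this)
  · have h4 : 4 ∣ f := hi₀ ▸ (pow_dvd_pow 2 hi : 2 ^ 2 ∣ 2 ^ i₀)
    have h4p : 4 ∣ p - 1 := h4.trans hfp
    obtain ⟨a, ha, hna⟩ : ∃ a ∈ S, ¬ 4 ∣ g a := by
      by_contra hc
      push Not at hc
      have h4' : (4 : ℤ) ∣ (p : ℤ) + 1 := by
        rw [show (p : ℤ) + 1 = -∑ i ∈ S, s i * g i by linear_combination -hsum]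
        exact (Finset.dvd_sum fun i hi =>
          Dvd.dvd.mul_left (show ((4 : ℕ) : ℤ) ∣ (g i : ℤ) from Int.natCast_dvd_natCast.2 (hc i hi)) _).neg_right
      omega
    obtain ⟨j, hj⟩ := hd a ha
    have hj1 : j < 2 := by
      by_contra hj2
      refine hna ?_
      have : 2 ^ 2 ∣ 2 ^ j := pow_dvd_pow 2 (by omega)
      rcases hj with hj | hj
      · exact hj ▸ this
      · exact hj ▸ this.mul_left p
    have hga : g a = 2 ∨ g a = 2 * p := by
      have := hdq a ha
      rcases (by omega : j = 0 ∨ j = 1) with e | e <;> subst e <;> rcases hj with hj | hj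
      · exact absurd (by simpa using hj) (hg1 a ha)
      · exfalso
        have hodd := hp.eq_two_or_odd
        simp only [pow_zero, mul_one] at hj
        omega
      · left; simpa using hj
      · right; rw [hj]; ring
    obtain ⟨c, hc⟩ := hg a ha
    have hf' : (4 : ℤ) ≤ f := by exact_mod_cast Nat.le_of_dvd (by omega) h4
    have hfl : (f : ℤ) ≤ p - 1 := by omega
    have hr' : (r : ℤ) = p + f := by exact_mod_cast hrf
    rcases hga with e | e <;> rw [e] at hc
    · push_cast at hc
      rcases hs a ha with e | e <;> rw [e] at hc <;>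
        (rcases le_or_gt c 0 with h | h <;> nlinarith)
    · push_cast at hc
      have h1 : r = 2 * f + 1 := by
        rcases hs a ha with e | e <;> rw [e] at hc
        · -- `2 p - 1` is a multiple of `r`
          have : c = 1 := by
            rcases lt_trichotomy c 1 with h | h | h
            · nlinarith
            · exact h
            · nlinarith
          subst this
          omega
        · have : c = 1 := by
            rcases lt_trichotomy c 1 with h | h | h
            · nlinarith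
            · exact h
            · nlinarith
          subst this
          omega
      rcases three_dvd_two_pow_add_one i₀ with h | h
      · exact three hp hp5 (by omega)
      · refine three hr (by omega) ?_
        rw [pow_succ, ← hi₀] at h
        omega

end Cfsg.Agent.Lib.SmallCofactor
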